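import Mathlib

/-!
# Similitudes of a non-degenerate alternating form have determinant `μ ^ k`

`exists_darboux`: a non-degenerate alternating form on a subspace has a Darboux family.
`det_of_alt_similitude`: if `S` is an invertible alternating matrix of size `2k` and
`Cᵀ * S * C = μ • S`, then `det C = μ ^ k`.
-/

set_option autoImplicit false

namespace Cfsg.Agent.Lib.Helper43.OFusion

open Matrix Module

section darboux

variable {F : Type*} [Field F] {V : Type*} [AddCommGroup V] [Module F V]

/-- A Darboux family inside a subspace on which the alternating form is non-degenerate. -/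
theorem exists_darboux [FiniteDimensional F V] (ω : V →ₗ[F] V →ₗ[F] F) (halt : ∀ v, ω v v = 0) :
    ∀ (n : ℕ) (W : Submodule F V), finrank F W = n →
      (∀ w ∈ W, (∀ w' ∈ W, ω w w' = 0) → w = 0) →
      ∃ (k : ℕ) (e f : Fin k → V), n = 2 * k ∧ (∀ i, e i ∈ W) ∧ (∀ i, f i ∈ W) ∧
        (∀ i j, ω (e i) (e j) = 0) ∧ (∀ i j, ω (f i) (f j) = 0) ∧
        (∀ i j, ω (e i) (f j) = if i = j then 1 else 0) := by
  have hskew : ∀ u v, ω u v = - ω v u := by
    intro u v
    have h := halt (u + v)
    simp only [map_add, LinearMap.add_apply, halt] at h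
    linear_combination h
  intro n
  induction n using Nat.strong_induction_on with
  | _ n ih =>
    intro W hW hnd
    by_cases hbot : W = ⊥
    · subst hbot
      rw [finrank_bot] at hW
      subst hW
      exact ⟨0, Fin.elim0, Fin.elim0, rfl, fun i => i.elim0, fun i => i.elim0,
        fun i => i.elim0, fun i => i.elim0, fun i => i.elim0⟩
    · obtain ⟨e₀, he₀, he₀0⟩ := Submodule.exists_mem_ne_zero_of_ne_bot hbot
      have hex : ∃ w' ∈ W, ω e₀ w' ≠ 0 := by
        by_contra hcon
        exact he₀0 (hnd e₀ he₀ (fun w' hw' => by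
          by_contra h
          exact hcon ⟨w', hw', h⟩))
      obtain ⟨w', hw', hw'0⟩ := hex
      obtain ⟨f₀, hf₀, hef⟩ : ∃ f₀ ∈ W, ω e₀ f₀ = 1 := by
        refine ⟨(ω e₀ w')⁻¹ • w', W.smul_mem _ hw', ?_⟩
        rw [map_smul, smul_eq_mul, inv_mul_cancel₀ hw'0]
      have hfe : ω f₀ e₀ = -1 := by rw [hskew, hef]
      -- the complement
      let W' : Submodule F V :=
        W ⊓ LinearMap.ker (ω e₀) ⊓ LinearMap.ker (ω f₀)
      have hmemW' : ∀ x, x ∈ W' ↔ x ∈ W ∧ ω e₀ x = 0 ∧ ω f₀ x = 0 := by
        intro x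
        simp only [W', Submodule.mem_inf, LinearMap.mem_ker]
        tauto
      have hW'le : W' ≤ W := fun x hx => ((hmemW' x).mp hx).1
      -- decomposition
      have hdec : ∀ x ∈ W, ∃ x' ∈ W', x = ω x f₀ • e₀ - ω x e₀ • f₀ + x' := by
        intro x hx
        refine ⟨x - ω x f₀ • e₀ + ω x e₀ • f₀, ?_, by abel⟩
        rw [hmemW']
        refine ⟨W.add_mem (W.sub_mem hx (W.smul_mem _ he₀)) (W.smul_mem _ hf₀), ?_, ?_⟩
        · rw [map_add, map_sub, map_smul, map_smul, halt, hef, hskew x e₀]
          simp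
        · rw [map_add, map_sub, map_smul, map_smul, halt, hfe, hskew x f₀]
          simp
      have hnd' : ∀ w ∈ W', (∀ w' ∈ W', ω w w' = 0) → w = 0 := by
        intro w hw hw0
        apply hnd w (hW'le hw)
        intro y hy
        obtain ⟨y', hy', hye⟩ := hdec y hy
        have h1 : ω w e₀ = 0 := by rw [hskew]; simp [((hmemW' w).mp hw).2.1]
        have h2 : ω w f₀ = 0 := by rw [hskew]; simp [((hmemW' w).mp hw).2.2]
        rw [hye, map_add, map_sub, map_smul, map_smul, h1, h2, hw0 y' hy']
        simp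
      -- dimension
      have hli : LinearIndependent F ![e₀, f₀] := by
        rw [LinearIndependent.pair_iff]
        intro s t hst
        have h1 : ω e₀ (s • e₀ + t • f₀) = 0 := by rw [hst, map_zero]
        have h2 : ω f₀ (s • e₀ + t • f₀) = 0 := by rw [hst, map_zero]
        rw [map_add, map_smul, map_smul, halt, hef] at h1
        rw [map_add, map_smul, map_smul, halt, hfe] at h2
        simp at h1 h2
        exact ⟨h2, h1⟩
      have hdisj : Submodule.span F (Set.range ![e₀, f₀]) ⊓ W' = ⊥ := by
        rw [Submodule.eq_bot_iff]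
        rintro x ⟨hx1, hx2⟩
        rw [SetLike.mem_coe, Submodule.mem_span_range_iff_exists_fun] at hx1
        obtain ⟨c, rfl⟩ := hx1
        rw [Fin.sum_univ_two] at hx2 ⊢
        simp only [Matrix.cons_val_zero, Matrix.cons_val_one] at hx2 ⊢
        obtain ⟨-, h1, h2⟩ := (hmemW' _).mp hx2
        rw [map_add, map_smul, map_smul, halt, hef] at h1
        rw [map_add, map_smul, map_smul, halt, hfe] at h2
        simp at h1 h2
        rw [h1, h2]
        simp
      have hsup : Submodule.span F (Set.range ![e₀, f₀]) ⊔ W' = W := by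
        apply le_antisymm
        · apply sup_le _ hW'le
          rw [Submodule.span_le]
          rintro x ⟨i, rfl⟩
          fin_cases i
          · exact he₀
          · exact hf₀
        · intro x hx
          obtain ⟨x', hx', hxe⟩ := hdec x hx
          rw [hxe]
          apply Submodule.add_mem _ _ (Submodule.mem_sup_right hx')
          apply Submodule.mem_sup_left
          apply Submodule.sub_mem
          · exact Submodule.smul_mem _ _ (Submodule.subset_span ⟨0, rfl⟩)
          · exact Submodule.smul_mem _ _ (Submodule.subset_span ⟨1, rfl⟩)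
      have hdim : finrank F W' + 2 = n := by
        have h1 := Submodule.finrank_sup_add_finrank_inf_eq
          (Submodule.span F (Set.range ![e₀, f₀])) W'
        rw [hsup, hdisj, finrank_bot, add_zero, finrank_span_eq_card hli, Fintype.card_fin,
          hW] at h1
        omega
      obtain ⟨k, e, f, hk, he, hf, hee, hff, hef'⟩ :=
        ih (finrank F W') (by omega) W' rfl hnd'
      refine ⟨k + 1, Fin.cons e₀ e, Fin.cons f₀ f, by omega, ?_, ?_, ?_, ?_, ?_⟩
      · intro i
        refine Fin.cases ?_ (fun j => ?_) i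
        · simpa using he₀
        · simpa using hW'le (he j)
      · intro i
        refine Fin.cases ?_ (fun j => ?_) i
        · simpa using hf₀
        · simpa using hW'le (hf j)
      · intro i j
        refine Fin.cases ?_ (fun i' => ?_) i <;> refine Fin.cases ?_ (fun j' => ?_) j
        · simpa using halt e₀
        · simpa using ((hmemW' _).mp (he j')).2.1
        · have := ((hmemW' _).mp (he i')).2.1
          simp only [Fin.cons_succ, Fin.cons_zero]
          rw [hskew, this, neg_zero]
        · simpa using hee i' j'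
      · intro i j
        refine Fin.cases ?_ (fun i' => ?_) i <;> refine Fin.cases ?_ (fun j' => ?_) j
        · simpa using halt f₀
        · simpa using ((hmemW' _).mp (hf j')).2.2
        · have := ((hmemW' _).mp (hf i')).2.2
          simp only [Fin.cons_succ, Fin.cons_zero]
          rw [hskew, this, neg_zero]
        · simpa using hff i' j'
      · intro i j
        refine Fin.cases ?_ (fun i' => ?_) i <;> refine Fin.cases ?_ (fun j' => ?_) j
        · simpa using hef
        · have := ((hmemW' _).mp (hf j')).2.1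
          simp only [Fin.cons_succ, Fin.cons_zero]
          rw [this, if_neg (Fin.succ_ne_zero j').symm]
        · have := ((hmemW' _).mp (he i')).2.2
          simp only [Fin.cons_succ, Fin.cons_zero]
          rw [hskew, this, neg_zero, if_neg (Fin.succ_ne_zero i')]
        · simp only [Fin.cons_succ]
          rw [hef' i' j']
          simp [Fin.succ_inj]

end darboux

section det

variable {F : Type*} [Field F] {ι : Type*} [Fintype ι] [DecidableEq ι]

/-- The block diagonal matrix `diag(μ⁻¹, 1)` scales the standard symplectic form by `μ⁻¹`. -/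
theorem scaleBlock_J (k : ℕ) (μ : F) :
    (Matrix.fromBlocks (μ⁻¹ • (1 : Matrix (Fin k) (Fin k) F)) 0 0 1)ᵀ * Matrix.J (Fin k) F *
      Matrix.fromBlocks (μ⁻¹ • (1 : Matrix (Fin k) (Fin k) F)) 0 0 1 =
      μ⁻¹ • Matrix.J (Fin k) F := by
  unfold Matrix.J
  rw [Matrix.fromBlocks_transpose, Matrix.fromBlocks_multiply, Matrix.fromBlocks_multiply,
    Matrix.fromBlocks_smul]
  simp

/-- A similitude of a non-degenerate alternating form has determinant `μ ^ k`
(general form: the alternating property is a hypothesis). -/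
theorem det_of_alt_similitude' (k : ℕ) (hk : Fintype.card ι = 2 * k) (S C : Matrix ι ι F)
    (halt : ∀ v : ι → F, v ⬝ᵥ S *ᵥ v = 0) (hdet : IsUnit S.det) (μ : F)
    (hC : Cᵀ * S * C = μ • S) : C.det = μ ^ k := by
  have hdet0 : S.det ≠ 0 := hdet.ne_zero
  by_cases hk0 : k = 0
  · subst hk0
    haveI : IsEmpty ι := Fintype.card_eq_zero_iff.mp (by rw [hk])
    rw [Matrix.det_isEmpty, pow_zero]
  by_cases hμ : μ = 0
  · subst hμ
    rw [zero_smul] at hC
    have h1 := congrArg Matrix.det hC
    haveI : Nonempty ι := Fintype.card_pos_iff.mp (by rw [hk]; omega)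
    rw [Matrix.det_mul, Matrix.det_mul, Matrix.det_transpose, Matrix.det_zero] at h1
    have h2 : C.det = 0 := by
      rcases mul_eq_zero.mp h1 with h | h
      · rcases mul_eq_zero.mp h with h | h
        · exact h
        · exact absurd h hdet0
      · exact h
    rw [h2, zero_pow hk0]
  -- the bilinear form
  obtain ⟨ω, hω⟩ : ∃ ω : (ι → F) →ₗ[F] (ι → F) →ₗ[F] F, ∀ u v, ω u v = u ⬝ᵥ S *ᵥ v :=
    ⟨Matrix.toBilin' S, fun u v => Matrix.toBilin'_apply' S u v⟩
  have hnd : ∀ w ∈ (⊤ : Submodule F (ι → F)), (∀ w' ∈ (⊤ : Submodule F (ι → F)), ω w w' = 0) →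
      w = 0 := by
    intro w _ hw
    apply Matrix.eq_zero_of_vecMul_eq_zero hdet0
    funext i
    have h := hw (Pi.single i 1) Submodule.mem_top
    rw [hω, Matrix.dotProduct_mulVec] at h
    simpa using h
  have hfr : finrank F (⊤ : Submodule F (ι → F)) = 2 * k := by
    rw [finrank_top, Module.finrank_fintype_fun_eq_card, hk]
  obtain ⟨k', e, f, hk', -, -, hee, hff, hef⟩ :=
    exists_darboux ω (fun v => by rw [hω]; exact halt v) (2 * k) ⊤ hfr hnd
  have hkk : k' = k := by omega
  subst hkk
  have hskew : ∀ u v, ω u v = - ω v u := by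
    intro u v
    have h : ω (u + v) (u + v) = 0 := by rw [hω]; exact halt _
    have hu : ω u u = 0 := by rw [hω]; exact halt _
    have hv : ω v v = 0 := by rw [hω]; exact halt _
    simp only [map_add, LinearMap.add_apply, hu, hv] at h
    linear_combination h
  have hfe : ∀ i j, ω (f i) (e j) = if i = j then -1 else 0 := by
    intro i j
    rw [hskew, hef]
    by_cases h : i = j
    · rw [if_pos h, if_pos h.symm]
    · rw [if_neg h, if_neg (Ne.symm h), neg_zero]
  -- the change of basis
  let e' : ι ≃ Fin k' ⊕ Fin k' := Fintype.equivOfCardEq (by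
    rw [hk, Fintype.card_sum, Fintype.card_fin]; ring)
  let P : Matrix ι ι F := Matrix.of fun i j => Sum.elim e f (e' j) i
  have hPcol : ∀ j, (fun i => P i j) = Sum.elim e f (e' j) := fun j => rfl
  have hPSP : Pᵀ * S * P = (-(Matrix.J (Fin k') F)).submatrix e' e' := by
    ext a b
    have h1 : (Pᵀ * S * P) a b = ω (Sum.elim e f (e' a)) (Sum.elim e f (e' b)) := by
      rw [hω, ← hPcol a, ← hPcol b, Matrix.mul_assoc, Matrix.mul_apply]
      simp only [dotProduct, Matrix.mulVec, Matrix.transpose_apply, Matrix.mul_apply]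
    rw [h1, Matrix.submatrix_apply, Matrix.neg_apply, Matrix.J]
    rcases e' a with i | i <;> rcases e' b with j | j
    · simp [hee, Matrix.fromBlocks_apply₁₁]
    · simp [hef, Matrix.fromBlocks_apply₁₂, Matrix.one_apply]
    · simp only [Sum.elim_inr, Sum.elim_inl, hfe, Matrix.fromBlocks_apply₂₁, Matrix.one_apply]
      split_ifs <;> simp
    · simp [hff, Matrix.fromBlocks_apply₂₂]
  -- invertibility of `P`
  have hJdet : (Matrix.J (Fin k') F).det ≠ 0 := (Matrix.isUnit_det_J (Fin k') F).ne_zero
  have hPdet : P.det ≠ 0 := by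
    intro h
    have h1 := congrArg Matrix.det hPSP
    rw [Matrix.det_mul, Matrix.det_mul, Matrix.det_transpose, h, zero_mul, zero_mul,
      Matrix.det_submatrix_equiv_self, Matrix.det_neg] at h1
    exact (mul_ne_zero (pow_ne_zero _ (neg_ne_zero.mpr one_ne_zero)) hJdet) h1.symm
  have hPu : IsUnit P.det := isUnit_iff_ne_zero.mpr hPdet
  -- the conjugate
  obtain ⟨X, hX⟩ : ∃ X : Matrix ι ι F, X = P⁻¹ * C * P := ⟨_, rfl⟩
  have hPX : P * X = C * P := by
    rw [hX, ← Matrix.mul_assoc, ← Matrix.mul_assoc, Matrix.mul_nonsing_inv P hPu, Matrix.one_mul]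
  have hXdet : X.det = C.det := by
    rw [hX, Matrix.det_mul, Matrix.det_mul, Matrix.det_nonsing_inv, Ring.inverse_eq_inv']
    field_simp
  have hXJ : Xᵀ * (Pᵀ * S * P) * X = μ • (Pᵀ * S * P) := by
    calc Xᵀ * (Pᵀ * S * P) * X = (P * X)ᵀ * S * (P * X) := by
          rw [Matrix.transpose_mul]
          simp only [Matrix.mul_assoc]
      _ = Pᵀ * (Cᵀ * S * C) * P := by
          rw [hPX, Matrix.transpose_mul]
          simp only [Matrix.mul_assoc]
      _ = μ • (Pᵀ * S * P) := by
          rw [hC, Matrix.mul_smul, Matrix.smul_mul]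
  -- reindex
  obtain ⟨M, hM⟩ : ∃ M : Matrix (Fin k' ⊕ Fin k') (Fin k' ⊕ Fin k') F,
      M = X.submatrix e'.symm e'.symm := ⟨_, rfl⟩
  have hMdet : M.det = C.det := by
    rw [hM, Matrix.det_submatrix_equiv_self, hXdet]
  have hMJ : Mᵀ * Matrix.J (Fin k') F * M = μ • Matrix.J (Fin k') F := by
    have h1 := congrArg (fun A : Matrix ι ι F => A.submatrix e'.symm e'.symm) hXJ
    simp only [hPSP] at h1
    have h2 : (μ • (-(Matrix.J (Fin k') F)).submatrix e' e').submatrix e'.symm e'.symm =
        μ • (-(Matrix.J (Fin k') F)) := by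
      ext a b
      simp
    rw [h2, ← Matrix.submatrix_mul_equiv _ _ _ e'.symm,
      ← Matrix.submatrix_mul_equiv _ _ _ e'.symm, Matrix.submatrix_submatrix] at h1
    simp only [Equiv.self_comp_symm, Matrix.submatrix_id_id] at h1
    rw [← Matrix.transpose_submatrix, ← hM] at h1
    rw [Matrix.mul_neg, Matrix.neg_mul, smul_neg, neg_inj] at h1
    exact h1
  -- rescale to a symplectic matrix
  have hsymp : M * Matrix.fromBlocks (μ⁻¹ • (1 : Matrix (Fin k') (Fin k') F)) 0 0 1 ∈
      Matrix.symplecticGroup (Fin k') F := by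
    rw [SymplecticGroup.mem_iff']
    rw [Matrix.transpose_mul]
    calc (Matrix.fromBlocks (μ⁻¹ • (1 : Matrix (Fin k') (Fin k') F)) 0 0 1)ᵀ * Mᵀ *
          Matrix.J (Fin k') F * (M * Matrix.fromBlocks (μ⁻¹ • (1 : Matrix (Fin k') (Fin k') F)) 0 0 1)
        = (Matrix.fromBlocks (μ⁻¹ • (1 : Matrix (Fin k') (Fin k') F)) 0 0 1)ᵀ *
            (Mᵀ * Matrix.J (Fin k') F * M) *
            Matrix.fromBlocks (μ⁻¹ • (1 : Matrix (Fin k') (Fin k') F)) 0 0 1 := by
          simp only [Matrix.mul_assoc]
      _ = μ • (μ⁻¹ • Matrix.J (Fin k') F) := by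
          rw [hMJ, Matrix.mul_smul, Matrix.smul_mul, scaleBlock_J]
      _ = Matrix.J (Fin k') F := by
          rw [smul_smul, mul_inv_cancel₀ hμ, one_smul]
  have h1 := SymplecticGroup.det_eq_one hsymp
  rw [Matrix.det_mul, Matrix.det_fromBlocks_zero₂₁, Matrix.det_one, mul_one, Matrix.det_smul,
    Matrix.det_one, mul_one, Fintype.card_fin, hMdet] at h1
  rw [inv_pow] at h1
  field_simp at h1
  exact h1

/-- An invertible alternating matrix has even size. -/
theorem card_even_of_alt (S : Matrix ι ι F)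
    (halt : ∀ v : ι → F, v ⬝ᵥ S *ᵥ v = 0) (hdet : IsUnit S.det) :
    ∃ k : ℕ, Fintype.card ι = 2 * k := by
  have hdet0 : S.det ≠ 0 := hdet.ne_zero
  obtain ⟨ω, hω⟩ : ∃ ω : (ι → F) →ₗ[F] (ι → F) →ₗ[F] F, ∀ u v, ω u v = u ⬝ᵥ S *ᵥ v :=
    ⟨Matrix.toBilin' S, fun u v => Matrix.toBilin'_apply' S u v⟩
  have hnd : ∀ w ∈ (⊤ : Submodule F (ι → F)), (∀ w' ∈ (⊤ : Submodule F (ι → F)), ω w w' = 0) →
      w = 0 := by
    intro w _ hw
    apply Matrix.eq_zero_of_vecMul_eq_zero hdet0
    funext i
    have h := hw (Pi.single i 1) Submodule.mem_top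
    rw [hω, Matrix.dotProduct_mulVec] at h
    simpa using h
  have hfr : finrank F (⊤ : Submodule F (ι → F)) = Fintype.card ι := by
    rw [finrank_top, Module.finrank_fintype_fun_eq_card]
  obtain ⟨k', e, f, hk', -⟩ :=
    exists_darboux ω (fun v => by rw [hω]; exact halt v) (Fintype.card ι) ⊤ hfr hnd
  exact ⟨k', hk'⟩

/-- A similitude of a non-degenerate alternating form has determinant `μ ^ (n / 2)`. -/
theorem det_of_alt_similitude (S C : Matrix ι ι F)
    (halt : ∀ v : ι → F, v ⬝ᵥ S *ᵥ v = 0) (hdet : IsUnit S.det) (μ : F)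
    (hC : Cᵀ * S * C = μ • S) : C.det = μ ^ (Fintype.card ι / 2) := by
  obtain ⟨k, hk⟩ := card_even_of_alt S halt hdet
  rw [det_of_alt_similitude' k hk S C halt hdet μ hC, hk,
    Nat.mul_div_cancel_left _ (by norm_num : 0 < 2)]

end det

end Cfsg.Agent.Lib.Helper43.OFusion
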